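import Cfsg.Agent.L0.PcCert
import Cfsg.Agent.L0.Dw
import Cfsg.Agent.H9.OutJ1

/-! Generated certificate: the `2`-part of a Schur multiplier. -/

set_option autoImplicit false
set_option maxRecDepth 100000

namespace Cfsg.Agent.L0.J1P2

noncomputable def W : List (List ℕ) := [
  dw (nat_lit 5) (nat_lit 31) (nat_lit 4) (nat_lit 0x77ba8),
  dw (nat_lit 5) (nat_lit 31) (nat_lit 4) (nat_lit 0x6e445),
  dw (nat_lit 5) (nat_lit 31) (nat_lit 4) (nat_lit 0x62c03),
  dw (nat_lit 5) (nat_lit 31) (nat_lit 4) (nat_lit 0xb6d2d),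
  dw (nat_lit 5) (nat_lit 31) (nat_lit 4) (nat_lit 0xee524)]

noncomputable def P : PcP := ⟨nat_lit 2, nat_lit 1, nat_lit 2, nat_lit 0x1210, nat_lit 3, nat_lit 7, nat_lit 7, nat_lit 127, nat_lit 2, nat_lit 11, nat_lit 2, nat_lit 3⟩

noncomputable def fu : Fus := ⟨[nat_lit 4, nat_lit 2, nat_lit 1, nat_lit 4, nat_lit 2],
  [nat_lit 3, nat_lit 6, nat_lit 1, nat_lit 2, nat_lit 1],
  [nat_lit 3, nat_lit 3, nat_lit 3, nat_lit 4, nat_lit 4]⟩

noncomputable def lam : List ℕ := [nat_lit 0x0,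
  nat_lit 0x0,
  nat_lit 0x0]

noncomputable def bs : List ℕ := []

noncomputable def mo : List ℕ := []

noncomputable def cv0 : List ℕ := [nat_lit 0x810004001,
  nat_lit 0x81,
  nat_lit 0x10200000,
  nat_lit 0x200000,
  nat_lit 0x4001,
  nat_lit 0x800004000]

noncomputable def cc0 : List Con := [
  ⟨nat_lit 2, nat_lit 3, nat_lit 0, [nat_lit 0, nat_lit 0], [], nthN cv0 (nat_lit 0)⟩,
  ⟨nat_lit 2, nat_lit 3, nat_lit 0, [nat_lit 1, nat_lit 1], [], nthN cv0 (nat_lit 1)⟩,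
  ⟨nat_lit 2, nat_lit 3, nat_lit 0, [nat_lit 2, nat_lit 0], [nat_lit 0, nat_lit 2], nthN cv0 (nat_lit 2)⟩,
  ⟨nat_lit 2, nat_lit 3, nat_lit 0, [nat_lit 2, nat_lit 1], [nat_lit 1, nat_lit 2], nthN cv0 (nat_lit 3)⟩,
  ⟨nat_lit 2, nat_lit 4, nat_lit 0, [nat_lit 3, nat_lit 3], [], nthN cv0 (nat_lit 4)⟩,
  ⟨nat_lit 2, nat_lit 4, nat_lit 0, [nat_lit 4, nat_lit 4], [], nthN cv0 (nat_lit 5)⟩]

theorem con0 : allL cc0 (P.conOk fu) = true := by decide +kernel

noncomputable def CV : List (List ℕ) := [cv0]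

noncomputable def MU : List (List ℕ) := [[nat_lit 0x2d],
  [nat_lit 0x2f,
  nat_lit 0x3d],
  [nat_lit 0x8,
  nat_lit 0xc,
  nat_lit 0x1d]]

noncomputable def lv : List (List (List ℕ) × ℕ × List (ℕ × List ℕ)) := [
  ([[nat_lit 0], [nat_lit 1], [nat_lit 2]], nat_lit 0, [(nat_lit 0, []), (nat_lit 568, [nat_lit 2, nat_lit 0]), (nat_lit 734, [nat_lit 1, nat_lit 0]), (nat_lit 2115, [nat_lit 0]), (nat_lit 2123, [nat_lit 2, nat_lit 1]), (nat_lit 2796, [nat_lit 2, nat_lit 1, nat_lit 0]), (nat_lit 2961, [nat_lit 1]), (nat_lit 3076, [nat_lit 2])])]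

theorem rel0 : P.relRow (dT H9.OutJ1.T W) H9.OutJ1.B 0 = true := by decide +kernel
theorem rel1 : P.relRow (dT H9.OutJ1.T W) H9.OutJ1.B 1 = true := by decide +kernel
theorem rel2 : P.relRow (dT H9.OutJ1.T W) H9.OutJ1.B 2 = true := by decide +kernel
theorem fus0 : P.fusOk (dT H9.OutJ1.T W) H9.OutJ1.B fu 0 = true := by decide +kernel
theorem fus1 : P.fusOk (dT H9.OutJ1.T W) H9.OutJ1.B fu 1 = true := by decide +kernel
theorem fus2 : P.fusOk (dT H9.OutJ1.T W) H9.OutJ1.B fu 2 = true := by decide +kernel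
theorem fus3 : P.fusOk (dT H9.OutJ1.T W) H9.OutJ1.B fu 3 = true := by decide +kernel
theorem fus4 : P.fusOk (dT H9.OutJ1.T W) H9.OutJ1.B fu 4 = true := by decide +kernel
theorem fin0 : P.finRow lam (bs :: CV) MU 0 = true := by decide +kernel
theorem fin1 : P.finRow lam (bs :: CV) MU 1 = true := by decide +kernel
theorem fin2 : P.finRow lam (bs :: CV) MU 2 = true := by decide +kernel

theorem pm {G : Type*} [Group G] [Finite G] {A : RAct G 3080} {g : ℕ → G} (hb : A.IsBase H9.OutJ1.B)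
    (h : A.Tab g 32 H9.OutJ1.T) (ho : Nat.card G = 175560) : PMult G 2 0 0 :=
  pmult_of_tab hb h ho P (show Nat.Prime 2 by norm_num) W fu 0 lam bs mo [cc0] CV MU lv 5
    (by decide +kernel) (forall_lt_succ' (forall_lt_succ' (forall_lt_succ' forall_lt_zero' rel0) rel1) rel2) (by decide +kernel)
    (forall_lt_succ' (forall_lt_succ' (forall_lt_succ' (forall_lt_succ' (forall_lt_succ' forall_lt_zero' fus0) fus1) fus2) fus3) fus4)
    (by decide +kernel) (by decide +kernel) (by decide +kernel) (by decide +kernel)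
    (List.forall_mem_cons.mpr ⟨con0, (by simp)⟩)
    (forall_lt_succ' (forall_lt_succ' (forall_lt_succ' forall_lt_zero' fin0) fin1) fin2) (by decide +kernel)

end Cfsg.Agent.L0.J1P2
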