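import Cfsg.Agent.L0.PcCert
import Cfsg.Agent.L0.Dw
import Cfsg.Agent.H9.OutM22

/-! Generated certificate: the `3`-part of a Schur multiplier. -/

set_option autoImplicit false
set_option maxRecDepth 100000

namespace Cfsg.Agent.L0.M22P3

noncomputable def W : List (List ℕ) := [
  dw (nat_lit 5) (nat_lit 31) (nat_lit 5) (nat_lit 0x620544),
  dw (nat_lit 5) (nat_lit 31) (nat_lit 4) (nat_lit 0x4bdc0),
  dw (nat_lit 5) (nat_lit 31) (nat_lit 4) (nat_lit 0x19200)]

noncomputable def P : PcP := ⟨nat_lit 3, nat_lit 2, nat_lit 1, nat_lit 0x10, nat_lit 4, nat_lit 15, nat_lit 9, nat_lit 511, nat_lit 9, nat_lit 5, nat_lit 2, nat_lit 3⟩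

noncomputable def fu : Fus := ⟨[nat_lit 4, nat_lit 1],
  [nat_lit 8, nat_lit 2],
  [nat_lit 2, nat_lit 2]⟩

noncomputable def lam : List ℕ := [nat_lit 0x38000008,
  nat_lit 0x7000200000]

noncomputable def bs : List ℕ := [nat_lit 0x200]

noncomputable def mo : List ℕ := [nat_lit 0x8]

noncomputable def cv0 : List ℕ := [nat_lit 0x600,
  nat_lit 0x18000001,
  nat_lit 0x3000040000]

noncomputable def cc0 : List Con := [
  ⟨nat_lit 1, nat_lit 0, nat_lit 0, [nat_lit 1], [], nthN cv0 (nat_lit 0)⟩,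
  ⟨nat_lit 2, nat_lit 2, nat_lit 0, [nat_lit 0, nat_lit 0, nat_lit 0], [], nthN cv0 (nat_lit 1)⟩,
  ⟨nat_lit 2, nat_lit 2, nat_lit 0, [nat_lit 1, nat_lit 1, nat_lit 1], [], nthN cv0 (nat_lit 2)⟩]

theorem con0 : allL cc0 (P.conOk fu) = true := by decide +kernel

noncomputable def CV : List (List ℕ) := [cv0]

noncomputable def MU : List (List ℕ) := [[nat_lit 0xa2],
  [nat_lit 0x8,
  nat_lit 0x5b2]]

noncomputable def lv : List (List (List ℕ) × ℕ × List (ℕ × List ℕ)) := [
  ([[nat_lit 0], [nat_lit 1]], nat_lit 1, [(nat_lit 1, []), (nat_lit 4, [nat_lit 0]), (nat_lit 5, [nat_lit 1, nat_lit 1, nat_lit 0, nat_lit 0]), (nat_lit 6, [nat_lit 1, nat_lit 1]), (nat_lit 8, [nat_lit 1, nat_lit 0, nat_lit 0]), (nat_lit 9, [nat_lit 1, nat_lit 1, nat_lit 0]), (nat_lit 10, [nat_lit 1, nat_lit 0]), (nat_lit 20, [nat_lit 0, nat_lit 0]), (nat_lit 21, [nat_lit 1])])]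

theorem rel0 : P.relRow (dT H9.OutM22.T W) H9.OutM22.B 0 = true := by decide +kernel
theorem rel1 : P.relRow (dT H9.OutM22.T W) H9.OutM22.B 1 = true := by decide +kernel
theorem fus0 : P.fusOk (dT H9.OutM22.T W) H9.OutM22.B fu 0 = true := by decide +kernel
theorem fus1 : P.fusOk (dT H9.OutM22.T W) H9.OutM22.B fu 1 = true := by decide +kernel
theorem fin0 : P.finRow lam (bs :: CV) MU 0 = true := by decide +kernel
theorem fin1 : P.finRow lam (bs :: CV) MU 1 = true := by decide +kernel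

theorem pm {G : Type*} [Group G] [Finite G] {A : RAct G 24} {g : ℕ → G} (hb : A.IsBase H9.OutM22.B)
    (h : A.Tab g 19 H9.OutM22.T) (ho : Nat.card G = 443520) : PMult G 3 1 1 :=
  pmult_of_tab hb h ho P (show Nat.Prime 3 by norm_num) W fu 1 lam bs mo [cc0] CV MU lv 2
    (by decide +kernel) (forall_lt_succ' (forall_lt_succ' forall_lt_zero' rel0) rel1) (by decide +kernel)
    (forall_lt_succ' (forall_lt_succ' forall_lt_zero' fus0) fus1)
    (by decide +kernel) (by decide +kernel) (by decide +kernel) (by decide +kernel)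
    (List.forall_mem_cons.mpr ⟨con0, (by simp)⟩)
    (forall_lt_succ' (forall_lt_succ' forall_lt_zero' fin0) fin1) (by decide +kernel)

end Cfsg.Agent.L0.M22P3
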